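import Cfsg.Agent.Lib.Helper84.OE.YHP

set_option autoImplicit false
set_option linter.unusedSectionVars false

/-! # Omega12+ (S5871), piece YRF: an orthogonal decomposition out of a permuted family -/

namespace Cfsg.Agent.Lib.Helper84.OE

open Cfsg Cfsg.Geo Matrix Cfsg.Agent.Lib.Helper13.Asch Cfsg.Agent.Lib.Helper90.Sp
open Cfsg.Agent.Lib.Helper57.OE
open scoped Kronecker MatrixGroups

variable {ι : Type} [Fintype ι] [DecidableEq ι] {F : Type*} [Field F] {Q : (ι → F) → F}

theorem finrank_iSup_of_indep' {M : Type*} [AddCommGroup M] [Module F M]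
    [FiniteDimensional F M] {t : ℕ} (V : Fin t → Submodule F M) (h : iSupIndep V) :
    Module.finrank F (⨆ i, V i : Submodule F M) = ∑ i, Module.finrank F (V i) := by
  classical
  rw [Submodule.iSup_eq_range_dfinsupp_lsum,
    LinearMap.finrank_range_of_inj h.dfinsupp_lsum_injective]
  exact Module.finrank_directSum F (fun i => V i)

/-- the vectors right-orthogonal to `u` -/
def perpOf {f : (ι → F) → (ι → F) → F} (hb : IsBilinearForm f) (u : ι → F) :
    Submodule F (ι → F) where
  carrier := {v | f u v = 0}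
  add_mem' {a b} ha hb' := by
    simp only [Set.mem_ofPred_eq] at ha hb' ⊢
    rw [hb.add_right, ha, hb', add_zero]
  zero_mem' := by
    simp only [Set.mem_ofPred_eq]
    have := hb.smul_right 0 u 0
    simpa using this
  smul_mem' c a ha := by
    simp only [Set.mem_ofPred_eq] at ha ⊢
    rw [hb.smul_right, ha, mul_zero]

theorem mem_perpOf {f : (ι → F) → (ι → F) → F} (hb : IsBilinearForm f) (u v : ι → F) :
    v ∈ perpOf hb u ↔ f u v = 0 := Iff.rfl

theorem indep_of_orth' {f : (ι → F) → (ι → F) → F} (hb : IsBilinearForm f) {κ : Type*}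
    (D : κ → Submodule F (ι → F)) (hnd : ∀ x, IsNondegenerateOn f (D x))
    (horth : ∀ x y, x ≠ y → AreOrthogonalFor f (D x) (D y)) : iSupIndep D := by
  intro i
  rw [Submodule.disjoint_def]
  intro x hx hx2
  by_contra hx0
  obtain ⟨⟨u, hu, hux⟩, -⟩ := hnd i x hx hx0
  have hle : (⨆ j, ⨆ (_ : j ≠ i), D j) ≤ perpOf hb u :=
    iSup₂_le (fun j hj v hv => horth i j (Ne.symm hj) u hu v hv)
  exact hux (hle hx2)

theorem toLin'_gl_injective (h : GL ι F) :
    Function.Injective (Matrix.toLin' (h : Matrix ι ι F)) := by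
  intro a b hab
  have := congrArg (Matrix.toLin' ((h⁻¹ : GL ι F) : Matrix ι ι F)) hab
  simpa [Matrix.toLin'_apply, Matrix.mulVec_mulVec] using this

/-- YRF -/
theorem rdec_of_family (hQ : IsNondegenerateQuadraticForm Q) {H : Subgroup (GL ι F)}
    {κ : Type} [Fintype κ] {n k : ℕ} (hn : Fintype.card κ = n) (h2 : 2 ≤ n) (hk : 0 < k)
    (hcard : n * k = Fintype.card ι) (E : κ → Submodule F (ι → F))
    (hfr : ∀ x, Module.finrank F (E x) = k)
    (hnd : ∀ x, IsNondegenerateOn (QuadraticMap.polar Q) (E x))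
    (horth : ∀ x y, x ≠ y → AreOrthogonalFor (QuadraticMap.polar Q) (E x) (E y))
    (hiso : ∀ x y, AreIsometricFor Q (E x) (E y))
    (hperm : ∀ h ∈ H, ∀ x, ∃ y, (E x).map (Matrix.toLin' (h : Matrix ι ι F)) = E y) :
    ∃ D : Fin n → Submodule F (ι → F), IsOrthogonalMDecomposition Q k D ∧
      H ≤ decompositionStabilizer D ∧ ∀ i, ∃ x, D i = E x := by
  classical
  have hb := hQ.polar_bilinear
  let ε : κ ≃ Fin n := Fintype.equivFinOfCardEq hn
  have hEinj : Function.Injective E := by
    intro x y hxy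
    by_contra hne
    have hne' : E x ≠ ⊥ := by
      intro h
      have := hfr x
      rw [h, finrank_bot] at this
      omega
    obtain ⟨w, hw, hw0⟩ := Submodule.exists_mem_ne_zero_of_ne_bot hne'
    obtain ⟨⟨u, hu, huw⟩, -⟩ := hnd x w hw hw0
    exact huw (horth x y hne u hu w (hxy ▸ hw))
  have hind : iSupIndep (fun i : Fin n => E (ε.symm i)) :=
    indep_of_orth' hb _ (fun i => hnd _) (fun i j hij => horth _ _ (fun h => hij (ε.symm.injective h)))
  refine ⟨fun i => E (ε.symm i), ⟨⟨⟨h2, hk, fun i => hfr _, hind, ?_⟩, fun i => hnd _,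
    fun i j hij => horth _ _ (fun h => hij (ε.symm.injective h))⟩, fun i j => hiso _ _⟩, ?_,
    fun i => ⟨_, rfl⟩⟩
  · apply Submodule.eq_top_of_finrank_eq
    rw [finrank_iSup_of_indep' _ hind]
    simp only [hfr, Finset.sum_const, Finset.card_univ, Fintype.card_fin, smul_eq_mul,
      Module.finrank_fintype_fun_eq_card]
    exact hcard
  · intro h hh
    choose y hy using hperm h hh
    have hyinj : Function.Injective y := by
      intro a b hab
      apply hEinj
      apply Submodule.map_injective_of_injective (toLin'_gl_injective h)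
      rw [hy, hy, hab]
    have hybij : Function.Bijective y := Finite.injective_iff_bijective.1 hyinj
    refine ⟨ε.permCongr (Equiv.ofBijective y hybij), fun i => ?_⟩
    simp only [Equiv.permCongr_apply, Equiv.symm_apply_apply, Equiv.ofBijective_apply]
    exact hy _

end Cfsg.Agent.Lib.Helper84.OE
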