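import Cfsg.Agent.Lib.Helper84.OE.YHP

set_option autoImplicit false
set_option linter.unusedSectionVars false

/-! # Omega12+ (S5871), piece YRS: a rational basis gives a subfield group -/

namespace Cfsg.Agent.Lib.Helper84.OE

open Cfsg Cfsg.Geo Matrix Cfsg.Agent.Lib.Helper13.Asch Cfsg.Agent.Lib.Helper90.Sp
open Cfsg.Agent.Lib.Helper57.OE
open scoped Kronecker MatrixGroups

variable {ι : Type} [Fintype ι] [DecidableEq ι] {F : Type*} [Field F] {Q : (ι → F) → F}

theorem mem_range_map_of_entries' (F₁ : Subfield F) (g : GL ι F)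
    (h : ∀ i j, (g : Matrix ι ι F) i j ∈ F₁) :
    g ∈ (Matrix.GeneralLinearGroup.map (F₁.subtype : F₁ →+* F)).range := by
  let A₁ : Matrix ι ι F₁ := fun i j => ⟨(g : Matrix ι ι F) i j, h i j⟩
  have hA₁ : A₁.map (F₁.subtype : F₁ →+* F) = (g : Matrix ι ι F) := by
    ext k l; rfl
  have hdet : A₁.det ≠ 0 := by
    intro h0
    have h1 : F₁.subtype A₁.det = (g : Matrix ι ι F).det := by
      rw [RingHom.map_det, RingHom.mapMatrix_apply, hA₁]
    rw [h0, map_zero] at h1
    have h2 : (g : Matrix ι ι F).det ≠ 0 := by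
      have := (Matrix.GeneralLinearGroup.det g).ne_zero
      simpa using this
    exact h2 h1.symm
  exact ⟨Matrix.GeneralLinearGroup.mkOfDetNeZero A₁ hdet, Units.ext hA₁⟩

theorem form_sum_left {f : (ι → F) → (ι → F) → F} (hb : IsBilinearForm f) {κ : Type*}
    (s : Finset κ) (c : κ → F) (w : κ → (ι → F)) (v : ι → F) :
    f (∑ j ∈ s, c j • w j) v = ∑ j ∈ s, c j * f (w j) v := by
  classical
  induction s using Finset.induction_on with
  | empty =>
    have := hb.smul_left 0 0 v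
    simpa using this
  | insert a s ha ih =>
    rw [Finset.sum_insert ha, Finset.sum_insert ha, hb.add_left, hb.smul_left, ih]

theorem Q_sum_mem (hQ : IsNondegenerateQuadraticForm Q) (F₀ : Subfield F) (ζ : F) {κ : Type*}
    (w : κ → (ι → F)) (hQw : ∀ x, ζ * Q (w x) ∈ F₀)
    (hBw : ∀ x y, ζ * QuadraticMap.polar Q (w x) (w y) ∈ F₀)
    (c : κ → F) (hc : ∀ x, c x ∈ F₀) (s : Finset κ) :
    ζ * Q (∑ j ∈ s, c j • w j) ∈ F₀ := by
  classical
  have hb := hQ.polar_bilinear
  induction s using Finset.induction_on with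
  | empty =>
    have h0 : Q 0 = 0 := by
      have := hQ.smul 0 0
      simpa using this
    simp [h0, F₀.zero_mem]
  | insert a s ha ih =>
    rw [Finset.sum_insert ha, Q_add' Q, hQ.smul, hb.smul_left, QuadraticMap.polar_comm,
      form_sum_left hb]
    have e : ζ * (c a ^ 2 * Q (w a) + Q (∑ j ∈ s, c j • w j) +
        c a * ∑ j ∈ s, c j * QuadraticMap.polar Q (w j) (w a)) =
        c a ^ 2 * (ζ * Q (w a)) + ζ * Q (∑ j ∈ s, c j • w j) +
        c a * ∑ j ∈ s, c j * (ζ * QuadraticMap.polar Q (w j) (w a)) := by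
      rw [mul_add, mul_add, Finset.mul_sum, Finset.mul_sum, Finset.mul_sum]
      congr 1
      · ring
      · refine Finset.sum_congr rfl fun j _ => ?_
        ring
    rw [e]
    refine F₀.add_mem (F₀.add_mem (F₀.mul_mem (F₀.pow_mem (hc a) 2) (hQw a)) ih)
      (F₀.mul_mem (hc a) (F₀.sum_mem fun j _ => F₀.mul_mem (hc j) (hBw j a)))

/-- YRS -/
theorem rsub_of_rational_basis [Fintype F] (hQ : IsNondegenerateQuadraticForm Q)
    {H : Subgroup (GL ι F)} (F₀ : Subfield F) (r : ℕ) (hr : r.Prime)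
    (hcard : Fintype.card F = Nat.card F₀ ^ r) (ζ : F) (hζ : ζ ≠ 0) {κ : Type} [Fintype κ]
    (b : κ → (ι → F)) (hli : LinearIndependent F b) (hκ : Fintype.card κ = Fintype.card ι)
    (hQb : ∀ x, ζ * Q (b x) ∈ F₀) (hBb : ∀ x y, ζ * QuadraticMap.polar Q (b x) (b y) ∈ F₀)
    (hH : ∀ h ∈ H, ∀ x, ∃ u : κ → F, (∀ y, u y ∈ F₀) ∧
      (h : Matrix ι ι F) *ᵥ b x = ∑ y, u y • b y) : RSub Q H := by
  classical
  let ε : ι ≃ κ := Fintype.equivOfCardEq hκ.symm
  let C : Matrix ι ι F := fun i j => b (ε j) i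
  have hCu : IsUnit C := by
    rw [← Matrix.linearIndependent_cols_iff_isUnit]
    exact hli.comp ε ε.injective
  let P : GL ι F := hCu.unit
  have hP : (P : Matrix ι ι F) = C := rfl
  have hCmul : ∀ u : ι → F, C *ᵥ u = ∑ j, u j • b (ε j) := by
    intro u
    funext i
    simp only [Matrix.mulVec, dotProduct, C, Finset.sum_apply, Pi.smul_apply, smul_eq_mul]
    exact Finset.sum_congr rfl fun j _ => mul_comm _ _
  refine ⟨F₀, r, P, ζ, hr, hcard, hζ, ?_, ?_⟩
  · intro u hu
    show ζ * Q ((P : Matrix ι ι F) *ᵥ u) ∈ F₀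
    rw [hP, hCmul]
    exact Q_sum_mem hQ F₀ ζ (fun j => b (ε j)) (fun x => hQb _) (fun x y => hBb _ _) u hu _
  · intro h hh
    choose u hu hhu using hH h hh
    let M : Matrix ι ι F := fun j k => u (ε k) (ε j)
    have hhC : (h : Matrix ι ι F) * C = C * M := by
      ext i k
      have e1 : ((h : Matrix ι ι F) * C) i k = ((h : Matrix ι ι F) *ᵥ b (ε k)) i := by
        rw [Matrix.mul_apply]
        rfl
      rw [e1, hhu, Matrix.mul_apply, Finset.sum_apply, ← Equiv.sum_comp ε]
      refine Finset.sum_congr rfl fun j _ => ?_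
      simp only [Pi.smul_apply, smul_eq_mul, C, M]
      ring
    let g : GL ι F := P⁻¹ * h * P
    have hg : (g : Matrix ι ι F) = M := by
      show ((P⁻¹ : GL ι F) : Matrix ι ι F) * (h : Matrix ι ι F) * (P : Matrix ι ι F) = M
      rw [mul_assoc, hP, hhC, ← hP, ← mul_assoc, ← Units.val_mul, inv_mul_cancel, Units.val_one,
        one_mul]
    have hent : ∀ j k, (g : Matrix ι ι F) j k ∈ F₀ := by
      intro j k
      rw [hg]
      exact hu _ _
    refine ⟨g, Subgroup.mem_sup_left (mem_range_map_of_entries' F₀ g hent), ?_⟩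
    show P * g * P⁻¹ = h
    simp only [g]
    group

end Cfsg.Agent.Lib.Helper84.OE
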