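import Cfsg.Agent.Lib.Helper84.OE.YRF

set_option autoImplicit false
set_option linter.unusedSectionVars false

/-! # Omega12+ (S5871), piece YBF: a canonical frame of the blocks refines a decomposition to lines -/

namespace Cfsg.Agent.Lib.Helper84.OE

open Cfsg Cfsg.Geo Matrix Cfsg.Agent.Lib.Helper13.Asch Cfsg.Agent.Lib.Helper90.Sp
open Cfsg.Agent.Lib.Helper57.OE
open scoped Kronecker MatrixGroups

variable {ι : Type} [Fintype ι] [DecidableEq ι] {F : Type*} [Field F] {Q : (ι → F) → F}

theorem Q_zero' (hQ : IsNondegenerateQuadraticForm Q) : Q 0 = 0 := by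
  have := hQ.smul 0 0
  simpa using this

theorem Q_neg' (hQ : IsNondegenerateQuadraticForm Q) (v : ι → F) : Q (-v) = Q v := by
  have := hQ.smul (-1) v
  simpa using this

/-- the line spanned by a non-singular vector is non-degenerate in odd characteristic -/
theorem line_nondeg (h2 : (2 : F) ≠ 0) (hQ : IsNondegenerateQuadraticForm Q) {w : ι → F}
    (hw : Q w ≠ 0) : IsNondegenerateOn (QuadraticMap.polar Q) (Submodule.span F {w}) := by
  have hb := hQ.polar_bilinear
  intro v hv hv0
  obtain ⟨a, rfl⟩ := Submodule.mem_span_singleton.1 hv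
  have ha : a ≠ 0 := by
    rintro rfl
    exact hv0 (zero_smul _ _)
  refine ⟨⟨w, Submodule.mem_span_singleton_self w, ?_⟩, ⟨w, Submodule.mem_span_singleton_self w, ?_⟩⟩
  · rw [hb.smul_right, polar_self' hQ]
    exact mul_ne_zero ha (mul_ne_zero h2 hw)
  · rw [hb.smul_left, polar_self' hQ]
    exact mul_ne_zero ha (mul_ne_zero h2 hw)

/-- two lines spanned by vectors of the same norm are isometric -/
theorem line_isometric (hQ : IsNondegenerateQuadraticForm Q) {w w' : ι → F} (hw : w ≠ 0)
    (hw' : w' ≠ 0) (h : Q w = Q w') :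
    AreIsometricFor Q (Submodule.span F {w}) (Submodule.span F {w'}) := by
  refine ⟨(LinearEquiv.toSpanNonzeroSingleton F (ι → F) w hw).symm.trans
    (LinearEquiv.toSpanNonzeroSingleton F (ι → F) w' hw'), fun u => ?_⟩
  have h1 := LinearEquiv.toSpanNonzeroSingleton_symm_apply_smul F (ι → F) w hw u
  rw [LinearEquiv.trans_apply, LinearEquiv.toSpanNonzeroSingleton_apply]
  conv_rhs => rw [← h1]
  show Q (_ • w') = _
  rw [hQ.smul, hQ.smul, h]

theorem orth_span_singleton {f : (ι → F) → (ι → F) → F} (hb : IsBilinearForm f) {w w' : ι → F}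
    (h : f w w' = 0) : AreOrthogonalFor f (Submodule.span F {w}) (Submodule.span F {w'}) := by
  intro u hu v hv
  obtain ⟨a, rfl⟩ := Submodule.mem_span_singleton.1 hu
  obtain ⟨a', rfl⟩ := Submodule.mem_span_singleton.1 hv
  rw [hb.smul_left, hb.smul_right, h, mul_zero, mul_zero]

/-- the number of blocks times their dimension is the dimension -/
theorem card_of_mdecomp {t k : ℕ} {D : Fin t → Submodule F (ι → F)} (hD : IsMDecomposition k D) :
    t * k = Fintype.card ι := by
  have h1 := finrank_iSup_of_indep' D hD.indep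
  rw [hD.iSup_eq_top, finrank_top, Module.finrank_fintype_fun_eq_card] at h1
  rw [h1]
  simp [hD.finrank_eq]

/-- YBF -/
theorem lines_of_block_frame (h2 : (2 : F) ≠ 0) (hQ : IsNondegenerateQuadraticForm Q)
    {H : Subgroup (GL ι F)} (hH : FixesQuadForm (matrixSet H) Q) {t k n : ℕ}
    (D : Fin t → Submodule F (ι → F)) (hD : IsOrthogonalMDecomposition Q k D)
    (hHD : H ≤ decompositionStabilizer D) (hn : Fintype.card ι = n) (i₀ : Fin t) (c : F)
    (hc : c ≠ 0) (b : Fin k → (ι → F)) (hb : ∀ j, b j ∈ D i₀ ∧ Q (b j) = c)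
    (horth : ∀ j j', j ≠ j' → QuadraticMap.polar Q (b j) (b j') = 0)
    (hall : ∀ v ∈ D i₀, Q v = c → ∃ j, v = b j ∨ v = - b j) :
    ∃ D' : Fin n → Submodule F (ι → F), IsOrthogonalMDecomposition Q 1 D' ∧
      H ≤ decompositionStabilizer D' := by
  classical
  have hbl := hQ.polar_bilinear
  have hiso := fun i => hD.isometric i₀ i
  choose e he using hiso
  let w : Fin t × Fin k → (ι → F) := fun x => ((e x.1 ⟨b x.2, (hb x.2).1⟩ : D x.1) : ι → F)
  have hwD : ∀ x, w x ∈ D x.1 := fun x => (e x.1 ⟨b x.2, (hb x.2).1⟩).2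
  have hwQ : ∀ x, Q (w x) = c := fun x => (he x.1 _).trans (hb x.2).2
  have hw0 : ∀ x, w x ≠ 0 := by
    intro x h
    have := hwQ x
    rw [h, Q_zero' hQ] at this
    exact hc this.symm
  have htk : t * k = Fintype.card ι := card_of_mdecomp hD.decomp.decomp
  have ht2 : 2 ≤ t := hD.decomp.decomp.two_le
  have hk0 : 0 < k := hD.decomp.decomp.pos
  have hpol : ∀ i (u v : D i₀), QuadraticMap.polar Q ((e i u : D i) : ι → F) ((e i v : D i) : ι → F)
      = QuadraticMap.polar Q (u : ι → F) (v : ι → F) := by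
    intro i u v
    unfold QuadraticMap.polar
    rw [he, he, ← Submodule.coe_add, ← map_add, he, Submodule.coe_add]
  obtain ⟨D', hD', hHD', -⟩ := rdec_of_family (H := H) (κ := Fin t × Fin k) (n := n) (k := 1) hQ
    (by rw [Fintype.card_prod, Fintype.card_fin, Fintype.card_fin, htk, hn])
    (by
      rw [← hn, ← htk]
      calc 2 = 2 * 1 := rfl
        _ ≤ t * k := Nat.mul_le_mul ht2 hk0)
    one_pos (by rw [mul_one, hn]) (fun x => Submodule.span F {w x})
    (fun x => finrank_span_singleton (hw0 x))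
    (fun x => line_nondeg h2 hQ (by rw [hwQ]; exact hc))
    (by
      rintro ⟨i, j⟩ ⟨i', j'⟩ hne
      apply orth_span_singleton hbl
      by_cases hi : i = i'
      · subst hi
        have hj : j ≠ j' := fun h => hne (by rw [h])
        show QuadraticMap.polar Q ((e i _ : D i) : ι → F) ((e i _ : D i) : ι → F) = 0
        rw [hpol]
        exact horth j j' hj
      · exact hD.decomp.orthogonal i i' hi _ (hwD (i, j)) _ (hwD (i', j')))
    (fun x y => line_isometric hQ (hw0 x) (hw0 y) (by rw [hwQ, hwQ]))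
    (by
      rintro h hh ⟨i, j⟩
      obtain ⟨σ, hσ⟩ := hHD hh
      have hmem : (h : Matrix ι ι F) *ᵥ w (i, j) ∈ D (σ i) := by
        rw [← hσ i]
        exact ⟨w (i, j), hwD (i, j), by simp [Matrix.toLin'_apply]⟩
      have hQh : Q ((h : Matrix ι ι F) *ᵥ w (i, j)) = c := by
        rw [hH _ ⟨h, hh, rfl⟩, hwQ]
      set z : D i₀ := (e (σ i)).symm ⟨_, hmem⟩ with hz
      have hez : ((e (σ i) z : D (σ i)) : ι → F) = (h : Matrix ι ι F) *ᵥ w (i, j) := by
        rw [hz, LinearEquiv.apply_symm_apply]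
      have hQz : Q (z : ι → F) = c := by rw [← he (σ i) z, hez, hQh]
      obtain ⟨j', hj'⟩ := hall z z.2 hQz
      refine ⟨(σ i, j'), ?_⟩
      rw [Submodule.map_span, Set.image_singleton, Matrix.toLin'_apply, ← hez]
      rcases hj' with hj' | hj'
      · have : z = ⟨b j', (hb j').1⟩ := Subtype.ext hj'
        rw [this]
      · have : z = -⟨b j', (hb j').1⟩ := Subtype.ext hj'
        rw [this, map_neg, Submodule.coe_neg, ← Set.neg_singleton, Submodule.span_neg])
  exact ⟨D', hD', hHD'⟩

end Cfsg.Agent.Lib.Helper84.OE
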