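import Cfsg.Agent.Lib.Helper57.OE.Defs

set_option autoImplicit false
set_option linter.unusedSectionVars false

/-! # Omega12+ (S5871), piece YHP: a plane of plus type is a hyperbolic plane -/

namespace Cfsg.Agent.Lib.Helper84.OE

open Cfsg Cfsg.Geo Matrix Cfsg.Agent.Lib.Helper13.Asch Cfsg.Agent.Lib.Helper90.Sp
open Cfsg.Agent.Lib.Helper57.OE
open scoped Kronecker MatrixGroups

variable {ι : Type} [Fintype ι] [DecidableEq ι] {F : Type*} [Field F] {Q : (ι → F) → F}

theorem Q_add' (Q : (ι → F) → F) (u v : ι → F) :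
    Q (u + v) = Q u + Q v + QuadraticMap.polar Q u v := by
  unfold QuadraticMap.polar
  ring

theorem polar_self' (hQ : IsNondegenerateQuadraticForm Q) (v : ι → F) :
    QuadraticMap.polar Q v v = 2 * Q v := by
  have h1 : Q (v + v) = 4 * Q v := by
    rw [← two_smul F v, hQ.smul]
    ring
  unfold QuadraticMap.polar
  rw [h1]
  ring

/-- YHP -/
theorem hyperbolic_plane (hQ : IsNondegenerateQuadraticForm Q) (X : Submodule F (ι → F))
    (hnd : IsNondegenerateOn (QuadraticMap.polar Q) X) (hdim : Module.finrank F X = 2)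
    (hplus : IsPlusTypeOn Q X) :
    ∃ e f : ι → F, e ∈ X ∧ f ∈ X ∧ Q e = 0 ∧ Q f = 0 ∧ QuadraticMap.polar Q e f = 1 ∧
      (∀ v ∈ X, ∃ a b : F, v = a • e + b • f) ∧ ∀ a b : F, Q (a • e + b • f) = a * b := by
  classical
  have hb := hQ.polar_bilinear
  obtain ⟨U, hUX, hUs, hUd⟩ := hplus
  have hU1 : Module.finrank F U = 1 := by omega
  have hUne : U ≠ ⊥ := by
    intro h
    rw [h, finrank_bot] at hU1
    omega
  obtain ⟨e, heU, he0⟩ := Submodule.exists_mem_ne_zero_of_ne_bot hUne
  have heX : e ∈ X := hUX heU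
  have hQe : Q e = 0 := hUs e heU
  obtain ⟨-, x, hxX, hex⟩ := hnd e heX he0
  obtain ⟨x', hx'X, hex'⟩ : ∃ x' ∈ X, QuadraticMap.polar Q e x' = 1 :=
    ⟨(QuadraticMap.polar Q e x)⁻¹ • x, X.smul_mem _ hxX, by
      rw [hb.smul_right, inv_mul_cancel₀ hex]⟩
  have hee : QuadraticMap.polar Q e e = 0 := by rw [polar_self' hQ, hQe, mul_zero]
  obtain ⟨f, hfX, hQf, hef⟩ : ∃ f ∈ X, Q f = 0 ∧ QuadraticMap.polar Q e f = 1 := by
    refine ⟨x' + (-(Q x')) • e, X.add_mem hx'X (X.smul_mem _ heX), ?_, ?_⟩
    · rw [Q_add' Q, hQ.smul, hQe, hb.smul_right, QuadraticMap.polar_comm, hex']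
      ring
    · rw [hb.add_right, hb.smul_right, hee, hex']
      ring
  have hff : QuadraticMap.polar Q f f = 0 := by rw [polar_self' hQ, hQf, mul_zero]
  have hfe : QuadraticMap.polar Q f e = 1 := by rw [QuadraticMap.polar_comm, hef]
  have hz : ∀ v, QuadraticMap.polar Q v 0 = 0 := by
    intro v
    have := hb.smul_right 0 v 0
    simpa using this
  refine ⟨e, f, heX, hfX, hQe, hQf, hef, ?_, ?_⟩
  · have hli : LinearIndependent F ![(⟨e, heX⟩ : X), ⟨f, hfX⟩] := by
      rw [LinearIndependent.pair_iff]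
      intro s t hst
      have h0 : s • e + t • f = 0 := by
        have := congrArg (Subtype.val) hst
        simpa using this
      constructor
      · have := hz f
        rw [← h0, hb.add_right, hb.smul_right, hb.smul_right, hfe, hff] at this
        simpa using this
      · have := hz e
        rw [← h0, hb.add_right, hb.smul_right, hb.smul_right, hee, hef] at this
        simpa using this
    have hsp := hli.span_eq_top_of_card_eq_finrank (by simp [hdim])
    intro v hv
    have hmem : (⟨v, hv⟩ : X) ∈ Submodule.span F (Set.range ![(⟨e, heX⟩ : X), ⟨f, hfX⟩]) := by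
      rw [hsp]; trivial
    rw [Matrix.range_cons, Matrix.range_cons, Matrix.range_empty, Set.union_empty,
      Set.singleton_union, Submodule.mem_span_pair] at hmem
    obtain ⟨a, b, hab⟩ := hmem
    refine ⟨a, b, ?_⟩
    have := congrArg (Subtype.val) hab
    simpa using this.symm
  · intro a b
    rw [Q_add' Q, hQ.smul, hQ.smul, hQe, hQf, hb.smul_left, hb.smul_right, hef]
    ring

end Cfsg.Agent.Lib.Helper84.OE
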